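import Cfsg.Agent.Lib.H34.TCU6D.Chk
set_option autoImplicit false
set_option maxRecDepth 100000
set_option linter.all false
namespace H34.TCU6D
open H35.TC
section
variable {G : Type} [Group G] {g : Lt → G} {H : Subgroup G}
/-- the points of the nodes -/
noncomputable def cP (g : Lt → G) (H : Subgroup G) : ℕ → G ⧸ H := cc (fa g) lt P ((1 : G) : G ⧸ H)
theorem dp_t0_0_s (hinv : ∀ x, g (inv x) = (g x)⁻¹) (hr : ∀ r ∈ rels, (r.map g).prod = 1) (hH : ∀ r ∈ subs, (r.map g).prod ∈ H)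
    (j u : ℕ) (hu : u < M) (h : dp_t0_0 j u = true) : Good (fa g) T MG M (cP g H) Lt.t0 u := by
  unfold dp_t0_0 at h
  rcases brec_true h with h | h
  · exact lF3_good (T := T) (x := Lt.t0) (by decide) .s1 .t0 .s1 (hole_rel hinv hr (by decide +kernel)) h
  · exact lF_good (T := T) (x := Lt.t0) (by decide) [Lt.t2, Lt.t0, Lt.t2, Lt.s1, Lt.t0, Lt.t2] (hole_rel hinv hr (by decide +kernel)) h
theorem dp_t0_1_s (hinv : ∀ x, g (inv x) = (g x)⁻¹) (hr : ∀ r ∈ rels, (r.map g).prod = 1) (hH : ∀ r ∈ subs, (r.map g).prod ∈ H)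
    (j u : ℕ) (hu : u < M) (h : dp_t0_1 j u = true) : Good (fa g) T MG M (cP g H) Lt.t0 u := by
  unfold dp_t0_1 at h
  rcases brec_true h with h | h
  · exact lH_good (T := T) (x := Lt.t0) (by decide) [] [] (by rw [show cP g H 0 = _ from cc_zero]; exact sub_rel hinv (hH _ (by decide))) h
  · exact lF_good (T := T) (x := Lt.t0) (by decide) [Lt.t2, Lt.s1, Lt.t0, Lt.t2, Lt.t0, Lt.t2] (hole_rel hinv hr (by decide +kernel)) h
theorem dp_t0_2_s (hinv : ∀ x, g (inv x) = (g x)⁻¹) (hr : ∀ r ∈ rels, (r.map g).prod = 1) (hH : ∀ r ∈ subs, (r.map g).prod ∈ H)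
    (j u : ℕ) (hu : u < M) (h : dp_t0_2 j u = true) : Good (fa g) T MG M (cP g H) Lt.t0 u := by
  unfold dp_t0_2 at h
  rcases brec_true h with h | h
  · exact lS_good (T := T) (x := Lt.t0) (by decide) hu [Lt.t2, Lt.s1, Lt.t0, Lt.t2, Lt.t0, Lt.t2] (hole_rel hinv hr (by decide +kernel)) h
  · exact lF_good (T := T) (x := Lt.t0) (by decide) [Lt.t2, Lt.t0, Lt.t2, Lt.t0, Lt.t2, Lt.s1] (hole_rel hinv hr (by decide +kernel)) h
theorem dp_t0_3_s (hinv : ∀ x, g (inv x) = (g x)⁻¹) (hr : ∀ r ∈ rels, (r.map g).prod = 1) (hH : ∀ r ∈ subs, (r.map g).prod ∈ H)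
    (j u : ℕ) (hu : u < M) (h : dp_t0_3 j u = true) : Good (fa g) T MG M (cP g H) Lt.t0 u := by
  unfold dp_t0_3 at h
  rcases brec_true h with h | h
  · exact dp_t0_1_s hinv hr hH j u hu h
  · exact dp_t0_2_s hinv hr hH j u hu h
theorem dp_t0_4_s (hinv : ∀ x, g (inv x) = (g x)⁻¹) (hr : ∀ r ∈ rels, (r.map g).prod = 1) (hH : ∀ r ∈ subs, (r.map g).prod ∈ H)
    (j u : ℕ) (hu : u < M) (h : dp_t0_4 j u = true) : Good (fa g) T MG M (cP g H) Lt.t0 u := by
  unfold dp_t0_4 at h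
  rcases brec_true h with h | h
  · exact lS_good (T := T) (x := Lt.t0) (by decide) hu [Lt.t2, Lt.t0, Lt.t2, Lt.s1, Lt.t0, Lt.t2] (hole_rel hinv hr (by decide +kernel)) h
  · exact lF_good (T := T) (x := Lt.t0) (by decide) [Lt.t1, Lt.t2, Lt.t1, Lt.t0, Lt.t1, Lt.t2, Lt.t1, Lt.t0, Lt.t1, Lt.t2, Lt.t1, Lt.s3] (hole_rel hinv hr (by decide +kernel)) h
theorem dp_t0_5_s (hinv : ∀ x, g (inv x) = (g x)⁻¹) (hr : ∀ r ∈ rels, (r.map g).prod = 1) (hH : ∀ r ∈ subs, (r.map g).prod ∈ H)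
    (j u : ℕ) (hu : u < M) (h : dp_t0_5 j u = true) : Good (fa g) T MG M (cP g H) Lt.t0 u := by
  unfold dp_t0_5 at h
  rcases brec_true h with h | h
  · exact lS_good (T := T) (x := Lt.t0) (by decide) hu [Lt.t1, Lt.t2, Lt.t1, Lt.t0, Lt.t1, Lt.t2, Lt.t1, Lt.s3, Lt.t0, Lt.t1, Lt.t2, Lt.t1] (hole_rel hinv hr (by decide +kernel)) h
  · exact lF_good (T := T) (x := Lt.t0) (by decide) [Lt.t1, Lt.t2, Lt.t1, Lt.t0, Lt.t1, Lt.t2, Lt.t1, Lt.s3, Lt.t0, Lt.t1, Lt.t2, Lt.t1] (hole_rel hinv hr (by decide +kernel)) h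
theorem dp_t0_6_s (hinv : ∀ x, g (inv x) = (g x)⁻¹) (hr : ∀ r ∈ rels, (r.map g).prod = 1) (hH : ∀ r ∈ subs, (r.map g).prod ∈ H)
    (j u : ℕ) (hu : u < M) (h : dp_t0_6 j u = true) : Good (fa g) T MG M (cP g H) Lt.t0 u := by
  unfold dp_t0_6 at h
  rcases brec_true h with h | h
  · exact dp_t0_4_s hinv hr hH j u hu h
  · exact dp_t0_5_s hinv hr hH j u hu h
theorem dp_t0_7_s (hinv : ∀ x, g (inv x) = (g x)⁻¹) (hr : ∀ r ∈ rels, (r.map g).prod = 1) (hH : ∀ r ∈ subs, (r.map g).prod ∈ H)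
    (j u : ℕ) (hu : u < M) (h : dp_t0_7 j u = true) : Good (fa g) T MG M (cP g H) Lt.t0 u := by
  unfold dp_t0_7 at h
  rcases brec_true h with h | h
  · exact dp_t0_3_s hinv hr hH j u hu h
  · exact dp_t0_6_s hinv hr hH j u hu h
theorem dp_t0_8_s (hinv : ∀ x, g (inv x) = (g x)⁻¹) (hr : ∀ r ∈ rels, (r.map g).prod = 1) (hH : ∀ r ∈ subs, (r.map g).prod ∈ H)
    (j u : ℕ) (hu : u < M) (h : dp_t0_8 j u = true) : Good (fa g) T MG M (cP g H) Lt.t0 u := by
  unfold dp_t0_8 at h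
  rcases brec_true h with h | h
  · exact dp_t0_0_s hinv hr hH j u hu h
  · exact dp_t0_7_s hinv hr hH j u hu h
theorem dp_t0_9_s (hinv : ∀ x, g (inv x) = (g x)⁻¹) (hr : ∀ r ∈ rels, (r.map g).prod = 1) (hH : ∀ r ∈ subs, (r.map g).prod ∈ H)
    (j u : ℕ) (hu : u < M) (h : dp_t0_9 j u = true) : Good (fa g) T MG M (cP g H) Lt.t0 u := by
  unfold dp_t0_9 at h
  rcases brec_true h with h | h
  · rcases brec_true h with h | h
    · exact lF_good (T := T) (x := Lt.t0) (by decide) [Lt.t3, Lt.t0, Lt.t3, Lt.t0, Lt.t3] (hole_rel hinv hr (by decide +kernel)) h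
    · exact lF3_good (T := T) (x := Lt.t0) (by decide) .s3 .t0 .s3 (hole_rel hinv hr (by decide +kernel)) h
  · exact dp_t0_8_s hinv hr hH j u hu h
theorem snd_t0 (hinv : ∀ x, g (inv x) = (g x)⁻¹) (hr : ∀ r ∈ rels, (r.map g).prod = 1) (hH : ∀ r ∈ subs, (r.map g).prod ∈ H)
    (j u : ℕ) (hu : u < M) (h : disp_t0 j u = true) : Good (fa g) T MG M (cP g H) Lt.t0 u := by
  unfold disp_t0 at h
  rcases brec_true h with h | h
  · rcases brec_true h with h | h
    · exact lDef_good (T := T) (x := Lt.t0) (by decide) rfl h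
    · exact lPar_good (T := T) (x := Lt.t0) (x' := Lt.t0) (by decide) rfl (inv_rel hinv _ _ rfl) h
  · rcases brec_true h with h | h
    · rcases brec_true h with h | h
      · exact lF1_good (T := T) (x := Lt.t0) (by decide) .t0 (hole_rel hinv hr (by decide +kernel)) h
      · exact lF_good (T := T) (x := Lt.t0) (by decide) [Lt.t1, Lt.t0, Lt.t1, Lt.t0, Lt.t1] (hole_rel hinv hr (by decide +kernel)) h
    · exact dp_t0_9_s hinv hr hH j u hu h
theorem snc_t0 (hinv : ∀ x, g (inv x) = (g x)⁻¹) (hr : ∀ r ∈ rels, (r.map g).prod = 1) (hH : ∀ r ∈ subs, (r.map g).prod ∈ H)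
    (j u : ℕ) (hu : u < M) (h : chk_t0 j u = true) : (T Lt.t0 u < A ∧ Good (fa g) T MG M (cP g H) Lt.t0 u) ∨ (A ≤ T Lt.t0 u ∧ MG u < A) := by
  unfold chk_t0 at h
  cases hb : Nat.ble A (T_t0 u) with
  | true => rw [hb] at h; exact Or.inr ⟨le_of_ble hb, le_of_ble h⟩
  | false => rw [hb] at h; exact Or.inl ⟨lt_of_ble_false hb, snd_t0 hinv hr hH j u hu h⟩
theorem dp_t1_0_s (hinv : ∀ x, g (inv x) = (g x)⁻¹) (hr : ∀ r ∈ rels, (r.map g).prod = 1) (hH : ∀ r ∈ subs, (r.map g).prod ∈ H)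
    (j u : ℕ) (hu : u < M) (h : dp_t1_0 j u = true) : Good (fa g) T MG M (cP g H) Lt.t1 u := by
  unfold dp_t1_0 at h
  rcases brec_true h with h | h
  · exact lF_good (T := T) (x := Lt.t1) (by decide) [Lt.t0, Lt.t1, Lt.t0, Lt.t1, Lt.t0] (hole_rel hinv hr (by decide +kernel)) h
  · exact lF3_good (T := T) (x := Lt.t1) (by decide) .s3 .t1 .s3 (hole_rel hinv hr (by decide +kernel)) h
theorem dp_t1_1_s (hinv : ∀ x, g (inv x) = (g x)⁻¹) (hr : ∀ r ∈ rels, (r.map g).prod = 1) (hH : ∀ r ∈ subs, (r.map g).prod ∈ H)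
    (j u : ℕ) (hu : u < M) (h : dp_t1_1 j u = true) : Good (fa g) T MG M (cP g H) Lt.t1 u := by
  unfold dp_t1_1 at h
  rcases brec_true h with h | h
  · exact lS_good (T := T) (x := Lt.t1) (by decide) hu [Lt.t2, Lt.t1, Lt.t2, Lt.t1, Lt.t2] (hole_rel hinv hr (by decide +kernel)) h
  · exact lF_good (T := T) (x := Lt.t1) (by decide) [Lt.t0, Lt.t1, Lt.t2, Lt.t1, Lt.s3, Lt.t0, Lt.t1, Lt.t2, Lt.t1, Lt.t0, Lt.t1, Lt.t2] (hole_rel hinv hr (by decide +kernel)) h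
theorem dp_t1_2_s (hinv : ∀ x, g (inv x) = (g x)⁻¹) (hr : ∀ r ∈ rels, (r.map g).prod = 1) (hH : ∀ r ∈ subs, (r.map g).prod ∈ H)
    (j u : ℕ) (hu : u < M) (h : dp_t1_2 j u = true) : Good (fa g) T MG M (cP g H) Lt.t1 u := by
  unfold dp_t1_2 at h
  rcases brec_true h with h | h
  · exact lH_good (T := T) (x := Lt.t1) (by decide) [] [] (by rw [show cP g H 0 = _ from cc_zero]; exact sub_rel hinv (hH _ (by decide))) h
  · exact dp_t1_1_s hinv hr hH j u hu h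
theorem dp_t1_3_s (hinv : ∀ x, g (inv x) = (g x)⁻¹) (hr : ∀ r ∈ rels, (r.map g).prod = 1) (hH : ∀ r ∈ subs, (r.map g).prod ∈ H)
    (j u : ℕ) (hu : u < M) (h : dp_t1_3 j u = true) : Good (fa g) T MG M (cP g H) Lt.t1 u := by
  unfold dp_t1_3 at h
  rcases brec_true h with h | h
  · exact lF3_good (T := T) (x := Lt.t1) (by decide) .s1 .t1 .s1 (hole_rel hinv hr (by decide +kernel)) h
  · exact dp_t1_2_s hinv hr hH j u hu h
theorem dp_t1_4_s (hinv : ∀ x, g (inv x) = (g x)⁻¹) (hr : ∀ r ∈ rels, (r.map g).prod = 1) (hH : ∀ r ∈ subs, (r.map g).prod ∈ H)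
    (j u : ℕ) (hu : u < M) (h : dp_t1_4 j u = true) : Good (fa g) T MG M (cP g H) Lt.t1 u := by
  unfold dp_t1_4 at h
  rcases brec_true h with h | h
  · exact lS_good (T := T) (x := Lt.t1) (by decide) hu [Lt.t3, Lt.t1, Lt.t3] (hole_rel hinv hr (by decide +kernel)) h
  · exact lS_good (T := T) (x := Lt.t1) (by decide) hu [Lt.t0, Lt.t1, Lt.t0, Lt.t1, Lt.t0] (hole_rel hinv hr (by decide +kernel)) h
theorem dp_t1_5_s (hinv : ∀ x, g (inv x) = (g x)⁻¹) (hr : ∀ r ∈ rels, (r.map g).prod = 1) (hH : ∀ r ∈ subs, (r.map g).prod ∈ H)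
    (j u : ℕ) (hu : u < M) (h : dp_t1_5 j u = true) : Good (fa g) T MG M (cP g H) Lt.t1 u := by
  unfold dp_t1_5 at h
  rcases brec_true h with h | h
  · exact lS_good (T := T) (x := Lt.t1) (by decide) hu [Lt.s3, Lt.t1, Lt.s3] (hole_rel hinv hr (by decide +kernel)) h
  · exact dp_t1_4_s hinv hr hH j u hu h
theorem dp_t1_6_s (hinv : ∀ x, g (inv x) = (g x)⁻¹) (hr : ∀ r ∈ rels, (r.map g).prod = 1) (hH : ∀ r ∈ subs, (r.map g).prod ∈ H)
    (j u : ℕ) (hu : u < M) (h : dp_t1_6 j u = true) : Good (fa g) T MG M (cP g H) Lt.t1 u := by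
  unfold dp_t1_6 at h
  rcases brec_true h with h | h
  · exact lS_good (T := T) (x := Lt.t1) (by decide) hu [Lt.t0, Lt.t1, Lt.t2, Lt.t1, Lt.t0, Lt.t1, Lt.t2, Lt.t1, Lt.s3, Lt.t0, Lt.t1, Lt.t2] (hole_rel hinv hr (by decide +kernel)) h
  · exact lF_good (T := T) (x := Lt.t1) (by decide) [Lt.t2, Lt.t1, Lt.t2, Lt.t1, Lt.t2] (hole_rel hinv hr (by decide +kernel)) h
theorem dp_t1_7_s (hinv : ∀ x, g (inv x) = (g x)⁻¹) (hr : ∀ r ∈ rels, (r.map g).prod = 1) (hH : ∀ r ∈ subs, (r.map g).prod ∈ H)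
    (j u : ℕ) (hu : u < M) (h : dp_t1_7 j u = true) : Good (fa g) T MG M (cP g H) Lt.t1 u := by
  unfold dp_t1_7 at h
  rcases brec_true h with h | h
  · exact lF_good (T := T) (x := Lt.t1) (by decide) [Lt.t2, Lt.t1, Lt.s3, Lt.t0, Lt.t1, Lt.t2, Lt.t1, Lt.t0, Lt.t1, Lt.t2, Lt.t1, Lt.t0] (hole_rel hinv hr (by decide +kernel)) h
  · exact lS_good (T := T) (x := Lt.t1) (by decide) hu [Lt.t2, Lt.t1, Lt.t0, Lt.t1, Lt.t2, Lt.t1, Lt.s3, Lt.t0, Lt.t1, Lt.t2, Lt.t1, Lt.t0] (hole_rel hinv hr (by decide +kernel)) h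
theorem dp_t1_8_s (hinv : ∀ x, g (inv x) = (g x)⁻¹) (hr : ∀ r ∈ rels, (r.map g).prod = 1) (hH : ∀ r ∈ subs, (r.map g).prod ∈ H)
    (j u : ℕ) (hu : u < M) (h : dp_t1_8 j u = true) : Good (fa g) T MG M (cP g H) Lt.t1 u := by
  unfold dp_t1_8 at h
  rcases brec_true h with h | h
  · exact dp_t1_6_s hinv hr hH j u hu h
  · exact dp_t1_7_s hinv hr hH j u hu h
theorem dp_t1_9_s (hinv : ∀ x, g (inv x) = (g x)⁻¹) (hr : ∀ r ∈ rels, (r.map g).prod = 1) (hH : ∀ r ∈ subs, (r.map g).prod ∈ H)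
    (j u : ℕ) (hu : u < M) (h : dp_t1_9 j u = true) : Good (fa g) T MG M (cP g H) Lt.t1 u := by
  unfold dp_t1_9 at h
  rcases brec_true h with h | h
  · exact dp_t1_5_s hinv hr hH j u hu h
  · exact dp_t1_8_s hinv hr hH j u hu h
theorem dp_t1_10_s (hinv : ∀ x, g (inv x) = (g x)⁻¹) (hr : ∀ r ∈ rels, (r.map g).prod = 1) (hH : ∀ r ∈ subs, (r.map g).prod ∈ H)
    (j u : ℕ) (hu : u < M) (h : dp_t1_10 j u = true) : Good (fa g) T MG M (cP g H) Lt.t1 u := by
  unfold dp_t1_10 at h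
  rcases brec_true h with h | h
  · exact dp_t1_3_s hinv hr hH j u hu h
  · exact dp_t1_9_s hinv hr hH j u hu h
theorem dp_t1_11_s (hinv : ∀ x, g (inv x) = (g x)⁻¹) (hr : ∀ r ∈ rels, (r.map g).prod = 1) (hH : ∀ r ∈ subs, (r.map g).prod ∈ H)
    (j u : ℕ) (hu : u < M) (h : dp_t1_11 j u = true) : Good (fa g) T MG M (cP g H) Lt.t1 u := by
  unfold dp_t1_11 at h
  rcases brec_true h with h | h
  · exact dp_t1_0_s hinv hr hH j u hu h
  · exact dp_t1_10_s hinv hr hH j u hu h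
theorem snd_t1 (hinv : ∀ x, g (inv x) = (g x)⁻¹) (hr : ∀ r ∈ rels, (r.map g).prod = 1) (hH : ∀ r ∈ subs, (r.map g).prod ∈ H)
    (j u : ℕ) (hu : u < M) (h : disp_t1 j u = true) : Good (fa g) T MG M (cP g H) Lt.t1 u := by
  unfold disp_t1 at h
  rcases brec_true h with h | h
  · rcases brec_true h with h | h
    · exact lDef_good (T := T) (x := Lt.t1) (by decide) rfl h
    · exact lPar_good (T := T) (x := Lt.t1) (x' := Lt.t1) (by decide) rfl (inv_rel hinv _ _ rfl) h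
  · rcases brec_true h with h | h
    · rcases brec_true h with h | h
      · exact lF1_good (T := T) (x := Lt.t1) (by decide) .t1 (hole_rel hinv hr (by decide +kernel)) h
      · exact lF3_good (T := T) (x := Lt.t1) (by decide) .t3 .t1 .t3 (hole_rel hinv hr (by decide +kernel)) h
    · exact dp_t1_11_s hinv hr hH j u hu h
theorem snc_t1 (hinv : ∀ x, g (inv x) = (g x)⁻¹) (hr : ∀ r ∈ rels, (r.map g).prod = 1) (hH : ∀ r ∈ subs, (r.map g).prod ∈ H)
    (j u : ℕ) (hu : u < M) (h : chk_t1 j u = true) : (T Lt.t1 u < A ∧ Good (fa g) T MG M (cP g H) Lt.t1 u) ∨ (A ≤ T Lt.t1 u ∧ MG u < A) := by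
  unfold chk_t1 at h
  cases hb : Nat.ble A (T_t1 u) with
  | true => rw [hb] at h; exact Or.inr ⟨le_of_ble hb, le_of_ble h⟩
  | false => rw [hb] at h; exact Or.inl ⟨lt_of_ble_false hb, snd_t1 hinv hr hH j u hu h⟩
theorem dp_t2_0_s (hinv : ∀ x, g (inv x) = (g x)⁻¹) (hr : ∀ r ∈ rels, (r.map g).prod = 1) (hH : ∀ r ∈ subs, (r.map g).prod ∈ H)
    (j u : ℕ) (hu : u < M) (h : dp_t2_0 j u = true) : Good (fa g) T MG M (cP g H) Lt.t2 u := by
  unfold dp_t2_0 at h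
  rcases brec_true h with h | h
  · exact lS_good (T := T) (x := Lt.t2) (by decide) hu [Lt.t0, Lt.t2, Lt.s1, Lt.t0, Lt.t2, Lt.t0] (hole_rel hinv hr (by decide +kernel)) h
  · exact lF_good (T := T) (x := Lt.t2) (by decide) [Lt.s1, Lt.t0, Lt.t2, Lt.t0, Lt.t2, Lt.t0] (hole_rel hinv hr (by decide +kernel)) h
theorem dp_t2_1_s (hinv : ∀ x, g (inv x) = (g x)⁻¹) (hr : ∀ r ∈ rels, (r.map g).prod = 1) (hH : ∀ r ∈ subs, (r.map g).prod ∈ H)
    (j u : ℕ) (hu : u < M) (h : dp_t2_1 j u = true) : Good (fa g) T MG M (cP g H) Lt.t2 u := by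
  unfold dp_t2_1 at h
  rcases brec_true h with h | h
  · exact lS_good (T := T) (x := Lt.t2) (by decide) hu [Lt.t3, Lt.t2, Lt.t3] (hole_rel hinv hr (by decide +kernel)) h
  · exact dp_t2_0_s hinv hr hH j u hu h
theorem dp_t2_2_s (hinv : ∀ x, g (inv x) = (g x)⁻¹) (hr : ∀ r ∈ rels, (r.map g).prod = 1) (hH : ∀ r ∈ subs, (r.map g).prod ∈ H)
    (j u : ℕ) (hu : u < M) (h : dp_t2_2 j u = true) : Good (fa g) T MG M (cP g H) Lt.t2 u := by
  unfold dp_t2_2 at h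
  rcases brec_true h with h | h
  · exact lF3_good (T := T) (x := Lt.t2) (by decide) .s3 .t2 .s3 (hole_rel hinv hr (by decide +kernel)) h
  · exact dp_t2_1_s hinv hr hH j u hu h
theorem dp_t2_3_s (hinv : ∀ x, g (inv x) = (g x)⁻¹) (hr : ∀ r ∈ rels, (r.map g).prod = 1) (hH : ∀ r ∈ subs, (r.map g).prod ∈ H)
    (j u : ℕ) (hu : u < M) (h : dp_t2_3 j u = true) : Good (fa g) T MG M (cP g H) Lt.t2 u := by
  unfold dp_t2_3 at h
  rcases brec_true h with h | h
  · exact lF3_good (T := T) (x := Lt.t2) (by decide) .s1 .t2 .s1 (hole_rel hinv hr (by decide +kernel)) h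
  · exact dp_t2_2_s hinv hr hH j u hu h
theorem snd_t2 (hinv : ∀ x, g (inv x) = (g x)⁻¹) (hr : ∀ r ∈ rels, (r.map g).prod = 1) (hH : ∀ r ∈ subs, (r.map g).prod ∈ H)
    (j u : ℕ) (hu : u < M) (h : disp_t2 j u = true) : Good (fa g) T MG M (cP g H) Lt.t2 u := by
  unfold disp_t2 at h
  rcases brec_true h with h | h
  · rcases brec_true h with h | h
    · exact lF1_good (T := T) (x := Lt.t2) (by decide) .t2 (hole_rel hinv hr (by decide +kernel)) h
    · exact lDef_good (T := T) (x := Lt.t2) (by decide) rfl h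
  · rcases brec_true h with h | h
    · rcases brec_true h with h | h
      · exact lPar_good (T := T) (x := Lt.t2) (x' := Lt.t2) (by decide) rfl (inv_rel hinv _ _ rfl) h
      · exact lF3_good (T := T) (x := Lt.t2) (by decide) .t3 .t2 .t3 (hole_rel hinv hr (by decide +kernel)) h
    · rcases brec_true h with h | h
      · rcases brec_true h with h | h
        · exact lF_good (T := T) (x := Lt.t2) (by decide) [Lt.t1, Lt.t2, Lt.t1, Lt.t2, Lt.t1] (hole_rel hinv hr (by decide +kernel)) h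
        · exact lF_good (T := T) (x := Lt.t2) (by decide) [Lt.t0, Lt.t2, Lt.s1, Lt.t0, Lt.t2, Lt.t0] (hole_rel hinv hr (by decide +kernel)) h
      · exact dp_t2_3_s hinv hr hH j u hu h
theorem snc_t2 (hinv : ∀ x, g (inv x) = (g x)⁻¹) (hr : ∀ r ∈ rels, (r.map g).prod = 1) (hH : ∀ r ∈ subs, (r.map g).prod ∈ H)
    (j u : ℕ) (hu : u < M) (h : chk_t2 j u = true) : (T Lt.t2 u < A ∧ Good (fa g) T MG M (cP g H) Lt.t2 u) ∨ (A ≤ T Lt.t2 u ∧ MG u < A) := by
  unfold chk_t2 at h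
  cases hb : Nat.ble A (T_t2 u) with
  | true => rw [hb] at h; exact Or.inr ⟨le_of_ble hb, le_of_ble h⟩
  | false => rw [hb] at h; exact Or.inl ⟨lt_of_ble_false hb, snd_t2 hinv hr hH j u hu h⟩
theorem dp_t3_0_s (hinv : ∀ x, g (inv x) = (g x)⁻¹) (hr : ∀ r ∈ rels, (r.map g).prod = 1) (hH : ∀ r ∈ subs, (r.map g).prod ∈ H)
    (j u : ℕ) (hu : u < M) (h : dp_t3_0 j u = true) : Good (fa g) T MG M (cP g H) Lt.t3 u := by
  unfold dp_t3_0 at h
  rcases brec_true h with h | h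
  · exact lF3_good (T := T) (x := Lt.t3) (by decide) .s3 .t3 .s3 (hole_rel hinv hr (by decide +kernel)) h
  · exact lS_good (T := T) (x := Lt.t3) (by decide) hu [Lt.t0, Lt.t3, Lt.t0, Lt.t3, Lt.t0] (hole_rel hinv hr (by decide +kernel)) h
theorem dp_t3_1_s (hinv : ∀ x, g (inv x) = (g x)⁻¹) (hr : ∀ r ∈ rels, (r.map g).prod = 1) (hH : ∀ r ∈ subs, (r.map g).prod ∈ H)
    (j u : ℕ) (hu : u < M) (h : dp_t3_1 j u = true) : Good (fa g) T MG M (cP g H) Lt.t3 u := by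
  unfold dp_t3_1 at h
  rcases brec_true h with h | h
  · exact lF3_good (T := T) (x := Lt.t3) (by decide) .s1 .t3 .s1 (hole_rel hinv hr (by decide +kernel)) h
  · exact dp_t3_0_s hinv hr hH j u hu h
theorem snd_t3 (hinv : ∀ x, g (inv x) = (g x)⁻¹) (hr : ∀ r ∈ rels, (r.map g).prod = 1) (hH : ∀ r ∈ subs, (r.map g).prod ∈ H)
    (j u : ℕ) (hu : u < M) (h : disp_t3 j u = true) : Good (fa g) T MG M (cP g H) Lt.t3 u := by
  unfold disp_t3 at h
  rcases brec_true h with h | h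
  · rcases brec_true h with h | h
    · exact lF1_good (T := T) (x := Lt.t3) (by decide) .t3 (hole_rel hinv hr (by decide +kernel)) h
    · exact lDef_good (T := T) (x := Lt.t3) (by decide) rfl h
  · rcases brec_true h with h | h
    · rcases brec_true h with h | h
      · exact lPar_good (T := T) (x := Lt.t3) (x' := Lt.t3) (by decide) rfl (inv_rel hinv _ _ rfl) h
      · exact lF3_good (T := T) (x := Lt.t3) (by decide) .t1 .t3 .t1 (hole_rel hinv hr (by decide +kernel)) h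
    · rcases brec_true h with h | h
      · exact lF3_good (T := T) (x := Lt.t3) (by decide) .t2 .t3 .t2 (hole_rel hinv hr (by decide +kernel)) h
      · rcases brec_true h with h | h
        · exact lF_good (T := T) (x := Lt.t3) (by decide) [Lt.t0, Lt.t3, Lt.t0, Lt.t3, Lt.t0] (hole_rel hinv hr (by decide +kernel)) h
        · exact dp_t3_1_s hinv hr hH j u hu h
theorem snc_t3 (hinv : ∀ x, g (inv x) = (g x)⁻¹) (hr : ∀ r ∈ rels, (r.map g).prod = 1) (hH : ∀ r ∈ subs, (r.map g).prod ∈ H)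
    (j u : ℕ) (hu : u < M) (h : chk_t3 j u = true) : (T Lt.t3 u < A ∧ Good (fa g) T MG M (cP g H) Lt.t3 u) ∨ (A ≤ T Lt.t3 u ∧ MG u < A) := by
  unfold chk_t3 at h
  cases hb : Nat.ble A (T_t3 u) with
  | true => rw [hb] at h; exact Or.inr ⟨le_of_ble hb, le_of_ble h⟩
  | false => rw [hb] at h; exact Or.inl ⟨lt_of_ble_false hb, snd_t3 hinv hr hH j u hu h⟩
theorem dp_s1_0_s (hinv : ∀ x, g (inv x) = (g x)⁻¹) (hr : ∀ r ∈ rels, (r.map g).prod = 1) (hH : ∀ r ∈ subs, (r.map g).prod ∈ H)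
    (j u : ℕ) (hu : u < M) (h : dp_s1_0 j u = true) : Good (fa g) T MG M (cP g H) Lt.s1 u := by
  unfold dp_s1_0 at h
  rcases brec_true h with h | h
  · exact lS_good (T := T) (x := Lt.s1) (by decide) hu [Lt.t3, Lt.s1, Lt.t3] (hole_rel hinv hr (by decide +kernel)) h
  · exact lS_good (T := T) (x := Lt.s1) (by decide) hu [Lt.t1, Lt.s1, Lt.t1] (hole_rel hinv hr (by decide +kernel)) h
theorem dp_s1_1_s (hinv : ∀ x, g (inv x) = (g x)⁻¹) (hr : ∀ r ∈ rels, (r.map g).prod = 1) (hH : ∀ r ∈ subs, (r.map g).prod ∈ H)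
    (j u : ℕ) (hu : u < M) (h : dp_s1_1 j u = true) : Good (fa g) T MG M (cP g H) Lt.s1 u := by
  unfold dp_s1_1 at h
  rcases brec_true h with h | h
  · exact lF1_good (T := T) (x := Lt.s1) (by decide) .s1 (hole_rel hinv hr (by decide +kernel)) h
  · exact lS_good (T := T) (x := Lt.s1) (by decide) hu [Lt.t0, Lt.s1, Lt.t0] (hole_rel hinv hr (by decide +kernel)) h
theorem dp_s1_2_s (hinv : ∀ x, g (inv x) = (g x)⁻¹) (hr : ∀ r ∈ rels, (r.map g).prod = 1) (hH : ∀ r ∈ subs, (r.map g).prod ∈ H)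
    (j u : ℕ) (hu : u < M) (h : dp_s1_2 j u = true) : Good (fa g) T MG M (cP g H) Lt.s1 u := by
  unfold dp_s1_2 at h
  rcases brec_true h with h | h
  · exact lF_good (T := T) (x := Lt.s1) (by decide) [Lt.t0, Lt.t2, Lt.t0, Lt.t2, Lt.t0, Lt.t2] (hole_rel hinv hr (by decide +kernel)) h
  · exact lF_good (T := T) (x := Lt.s1) (by decide) [Lt.t2, Lt.t0, Lt.t2, Lt.t0, Lt.t2, Lt.t0] (hole_rel hinv hr (by decide +kernel)) h
theorem dp_s1_3_s (hinv : ∀ x, g (inv x) = (g x)⁻¹) (hr : ∀ r ∈ rels, (r.map g).prod = 1) (hH : ∀ r ∈ subs, (r.map g).prod ∈ H)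
    (j u : ℕ) (hu : u < M) (h : dp_s1_3 j u = true) : Good (fa g) T MG M (cP g H) Lt.s1 u := by
  unfold dp_s1_3 at h
  rcases brec_true h with h | h
  · exact lS_good (T := T) (x := Lt.s1) (by decide) hu [Lt.t2, Lt.s1, Lt.t2] (hole_rel hinv hr (by decide +kernel)) h
  · exact dp_s1_2_s hinv hr hH j u hu h
theorem dp_s1_4_s (hinv : ∀ x, g (inv x) = (g x)⁻¹) (hr : ∀ r ∈ rels, (r.map g).prod = 1) (hH : ∀ r ∈ subs, (r.map g).prod ∈ H)
    (j u : ℕ) (hu : u < M) (h : dp_s1_4 j u = true) : Good (fa g) T MG M (cP g H) Lt.s1 u := by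
  unfold dp_s1_4 at h
  rcases brec_true h with h | h
  · exact dp_s1_1_s hinv hr hH j u hu h
  · exact dp_s1_3_s hinv hr hH j u hu h
theorem dp_s1_5_s (hinv : ∀ x, g (inv x) = (g x)⁻¹) (hr : ∀ r ∈ rels, (r.map g).prod = 1) (hH : ∀ r ∈ subs, (r.map g).prod ∈ H)
    (j u : ℕ) (hu : u < M) (h : dp_s1_5 j u = true) : Good (fa g) T MG M (cP g H) Lt.s1 u := by
  unfold dp_s1_5 at h
  rcases brec_true h with h | h
  · rcases brec_true h with h | h
    · exact lF3_good (T := T) (x := Lt.s1) (by decide) .t3 .s1 .t3 (hole_rel hinv hr (by decide +kernel)) h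
    · exact lDef_good (T := T) (x := Lt.s1) (by decide) rfl h
  · rcases brec_true h with h | h
    · exact lPar_good (T := T) (x := Lt.s1) (x' := Lt.s1) (by decide) rfl (inv_rel hinv _ _ rfl) h
    · rcases brec_true h with h | h
      · exact dp_s1_0_s hinv hr hH j u hu h
      · exact dp_s1_4_s hinv hr hH j u hu h
theorem snd_s1 (hinv : ∀ x, g (inv x) = (g x)⁻¹) (hr : ∀ r ∈ rels, (r.map g).prod = 1) (hH : ∀ r ∈ subs, (r.map g).prod ∈ H)
    (j u : ℕ) (hu : u < M) (h : disp_s1 j u = true) : Good (fa g) T MG M (cP g H) Lt.s1 u := by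
  unfold disp_s1 at h
  rcases brec_true h with h | h
  · rcases brec_true h with h | h
    · exact lF3_good (T := T) (x := Lt.s1) (by decide) .t0 .s1 .t0 (hole_rel hinv hr (by decide +kernel)) h
    · rcases brec_true h with h | h
      · exact lF3_good (T := T) (x := Lt.s1) (by decide) .t2 .s1 .t2 (hole_rel hinv hr (by decide +kernel)) h
      · exact lF3_good (T := T) (x := Lt.s1) (by decide) .t1 .s1 .t1 (hole_rel hinv hr (by decide +kernel)) h
  · exact dp_s1_5_s hinv hr hH j u hu h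
theorem snc_s1 (hinv : ∀ x, g (inv x) = (g x)⁻¹) (hr : ∀ r ∈ rels, (r.map g).prod = 1) (hH : ∀ r ∈ subs, (r.map g).prod ∈ H)
    (j u : ℕ) (hu : u < M) (h : chk_s1 j u = true) : (T Lt.s1 u < A ∧ Good (fa g) T MG M (cP g H) Lt.s1 u) ∨ (A ≤ T Lt.s1 u ∧ MG u < A) := by
  unfold chk_s1 at h
  cases hb : Nat.ble A (T_s1 u) with
  | true => rw [hb] at h; exact Or.inr ⟨le_of_ble hb, le_of_ble h⟩
  | false => rw [hb] at h; exact Or.inl ⟨lt_of_ble_false hb, snd_s1 hinv hr hH j u hu h⟩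
theorem dp_s3_0_s (hinv : ∀ x, g (inv x) = (g x)⁻¹) (hr : ∀ r ∈ rels, (r.map g).prod = 1) (hH : ∀ r ∈ subs, (r.map g).prod ∈ H)
    (j u : ℕ) (hu : u < M) (h : dp_s3_0 j u = true) : Good (fa g) T MG M (cP g H) Lt.s3 u := by
  unfold dp_s3_0 at h
  rcases brec_true h with h | h
  · exact lS_good (T := T) (x := Lt.s3) (by decide) hu [Lt.t3, Lt.s3, Lt.t3] (hole_rel hinv hr (by decide +kernel)) h
  · exact lS_good (T := T) (x := Lt.s3) (by decide) hu [Lt.t2, Lt.s3, Lt.t2] (hole_rel hinv hr (by decide +kernel)) h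
theorem dp_s3_1_s (hinv : ∀ x, g (inv x) = (g x)⁻¹) (hr : ∀ r ∈ rels, (r.map g).prod = 1) (hH : ∀ r ∈ subs, (r.map g).prod ∈ H)
    (j u : ℕ) (hu : u < M) (h : dp_s3_1 j u = true) : Good (fa g) T MG M (cP g H) Lt.s3 u := by
  unfold dp_s3_1 at h
  rcases brec_true h with h | h
  · exact lF1_good (T := T) (x := Lt.s3) (by decide) .s3 (hole_rel hinv hr (by decide +kernel)) h
  · exact lF_good (T := T) (x := Lt.s3) (by decide) [Lt.t1, Lt.t2, Lt.t1, Lt.t0, Lt.t1, Lt.t2, Lt.t1, Lt.t0, Lt.t1, Lt.t2, Lt.t1, Lt.t0] (hole_rel hinv hr (by decide +kernel)) h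
theorem dp_s3_2_s (hinv : ∀ x, g (inv x) = (g x)⁻¹) (hr : ∀ r ∈ rels, (r.map g).prod = 1) (hH : ∀ r ∈ subs, (r.map g).prod ∈ H)
    (j u : ℕ) (hu : u < M) (h : dp_s3_2 j u = true) : Good (fa g) T MG M (cP g H) Lt.s3 u := by
  unfold dp_s3_2 at h
  rcases brec_true h with h | h
  · exact lS_good (T := T) (x := Lt.s3) (by decide) hu [Lt.t1, Lt.s3, Lt.t1] (hole_rel hinv hr (by decide +kernel)) h
  · exact dp_s3_1_s hinv hr hH j u hu h
theorem dp_s3_3_s (hinv : ∀ x, g (inv x) = (g x)⁻¹) (hr : ∀ r ∈ rels, (r.map g).prod = 1) (hH : ∀ r ∈ subs, (r.map g).prod ∈ H)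
    (j u : ℕ) (hu : u < M) (h : dp_s3_3 j u = true) : Good (fa g) T MG M (cP g H) Lt.s3 u := by
  unfold dp_s3_3 at h
  rcases brec_true h with h | h
  · exact lS_good (T := T) (x := Lt.s3) (by decide) hu [Lt.t0, Lt.s3, Lt.t0] (hole_rel hinv hr (by decide +kernel)) h
  · exact dp_s3_2_s hinv hr hH j u hu h
theorem dp_s3_4_s (hinv : ∀ x, g (inv x) = (g x)⁻¹) (hr : ∀ r ∈ rels, (r.map g).prod = 1) (hH : ∀ r ∈ subs, (r.map g).prod ∈ H)
    (j u : ℕ) (hu : u < M) (h : dp_s3_4 j u = true) : Good (fa g) T MG M (cP g H) Lt.s3 u := by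
  unfold dp_s3_4 at h
  rcases brec_true h with h | h
  · exact dp_s3_0_s hinv hr hH j u hu h
  · exact dp_s3_3_s hinv hr hH j u hu h
theorem dp_s3_5_s (hinv : ∀ x, g (inv x) = (g x)⁻¹) (hr : ∀ r ∈ rels, (r.map g).prod = 1) (hH : ∀ r ∈ subs, (r.map g).prod ∈ H)
    (j u : ℕ) (hu : u < M) (h : dp_s3_5 j u = true) : Good (fa g) T MG M (cP g H) Lt.s3 u := by
  unfold dp_s3_5 at h
  rcases brec_true h with h | h
  · rcases brec_true h with h | h
    · exact lF3_good (T := T) (x := Lt.s3) (by decide) .t3 .s3 .t3 (hole_rel hinv hr (by decide +kernel)) h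
    · exact lDef_good (T := T) (x := Lt.s3) (by decide) rfl h
  · rcases brec_true h with h | h
    · exact lPar_good (T := T) (x := Lt.s3) (x' := Lt.s3) (by decide) rfl (inv_rel hinv _ _ rfl) h
    · exact dp_s3_4_s hinv hr hH j u hu h
theorem snd_s3 (hinv : ∀ x, g (inv x) = (g x)⁻¹) (hr : ∀ r ∈ rels, (r.map g).prod = 1) (hH : ∀ r ∈ subs, (r.map g).prod ∈ H)
    (j u : ℕ) (hu : u < M) (h : disp_s3 j u = true) : Good (fa g) T MG M (cP g H) Lt.s3 u := by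
  unfold disp_s3 at h
  rcases brec_true h with h | h
  · rcases brec_true h with h | h
    · exact lF3_good (T := T) (x := Lt.s3) (by decide) .t1 .s3 .t1 (hole_rel hinv hr (by decide +kernel)) h
    · rcases brec_true h with h | h
      · exact lF3_good (T := T) (x := Lt.s3) (by decide) .t0 .s3 .t0 (hole_rel hinv hr (by decide +kernel)) h
      · exact lF3_good (T := T) (x := Lt.s3) (by decide) .t2 .s3 .t2 (hole_rel hinv hr (by decide +kernel)) h
  · exact dp_s3_5_s hinv hr hH j u hu h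
theorem snc_s3 (hinv : ∀ x, g (inv x) = (g x)⁻¹) (hr : ∀ r ∈ rels, (r.map g).prod = 1) (hH : ∀ r ∈ subs, (r.map g).prod ∈ H)
    (j u : ℕ) (hu : u < M) (h : chk_s3 j u = true) : (T Lt.s3 u < A ∧ Good (fa g) T MG M (cP g H) Lt.s3 u) ∨ (A ≤ T Lt.s3 u ∧ MG u < A) := by
  unfold chk_s3 at h
  cases hb : Nat.ble A (T_s3 u) with
  | true => rw [hb] at h; exact Or.inr ⟨le_of_ble hb, le_of_ble h⟩
  | false => rw [hb] at h; exact Or.inl ⟨lt_of_ble_false hb, snd_s3 hinv hr hH j u hu h⟩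
theorem dM_0_s (hinv : ∀ x, g (inv x) = (g x)⁻¹) (hr : ∀ r ∈ rels, (r.map g).prod = 1) (j z1 z2 u : ℕ) (h : dM_0 j z1 z2 u = true) : GoodM (fa g) T MG M (cP g H) u := by
  unfold dM_0 at h
  rcases brec_true h with h | h
  · rcases brec_true h with h | h
    · exact mCo_good (T := T) (y := .t0) (by decide) h
    · exact mCo_good (T := T) (y := .t3) (by decide) h
  · rcases brec_true h with h | h
    · exact mCo_good (T := T) (y := .t2) (by decide) h
    · rcases brec_true h with h | h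
      · exact mCo_good (T := T) (y := .t1) (by decide) h
      · rcases brec_true h with h | h
        · exact mRel_good (T := T) (by decide) [Lt.t2, Lt.t0, Lt.t2, Lt.s1, Lt.t0] [Lt.t0, Lt.t2] (pair_rel hinv hr (by decide +kernel)) h
        · exact mRel_good (T := T) (by decide) [Lt.t1, Lt.t0, Lt.t1, Lt.t0, Lt.t1, Lt.t0] [] (pair_rel hinv hr (by decide +kernel)) h
theorem sndM (hinv : ∀ x, g (inv x) = (g x)⁻¹) (hr : ∀ r ∈ rels, (r.map g).prod = 1) (u : ℕ) (h : chkM u = true) :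
    MG u < A → MG u % M < u ∧ GoodM (fa g) T MG M (cP g H) u := by
  intro hA
  unfold chkM at h
  cases hb : Nat.ble A (MG u) with
  | true => exact absurd (le_of_ble hb) (by omega)
  | false =>
    rw [hb] at h
    obtain ⟨h1, h2⟩ := band_eq_true.1 h
    exact ⟨le_of_ble h1, dM_0_s hinv hr _ _ _ _ h2⟩
theorem sndN (hinv : ∀ x, g (inv x) = (g x)⁻¹) (hr : ∀ r ∈ rels, (r.map g).prod = 1) (hH : ∀ r ∈ subs, (r.map g).prod ∈ H)
    (u : ℕ) (hu : u < M) (h : chkP u = true) : (∀ x, (T x u < A ∧ Good (fa g) T MG M (cP g H) x u) ∨ (A ≤ T x u ∧ MG u < A)) ∧ (MG u < A → MG u % M < u ∧ GoodM (fa g) T MG M (cP g H) u) := by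
  unfold chkP at h
  cases hb : Nat.ble M u with
  | true => exact absurd (le_of_ble hb) (by omega)
  | false =>
    rw [hb] at h
    change chkN u = true at h
    unfold chkN at h
    obtain ⟨h0, h⟩ := band_eq_true.1 h
    obtain ⟨h1, h⟩ := band_eq_true.1 h
    obtain ⟨h2, h⟩ := band_eq_true.1 h
    obtain ⟨h3, h⟩ := band_eq_true.1 h
    obtain ⟨h4, h⟩ := band_eq_true.1 h
    obtain ⟨h5, h⟩ := band_eq_true.1 h
    refine ⟨?_, sndM hinv hr u h⟩
    intro x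
    cases x
    · exact snc_t0 hinv hr hH _ u hu h0
    · exact snc_t1 hinv hr hH _ u hu h1
    · exact snc_t2 hinv hr hH _ u hu h2
    · exact snc_t3 hinv hr hH _ u hu h3
    · exact snc_s1 hinv hr hH _ u hu h4
    · exact snc_s3 hinv hr hH _ u hu h5
theorem final (hinv : ∀ x, g (inv x) = (g x)⁻¹) (hr : ∀ r ∈ rels, (r.map g).prod = 1) (hH : ∀ r ∈ subs, (r.map g).prod ∈ H)
    (hall : ∀ u, u < M → chkP u = true) (hc : cntB liveP 8 0 = 108) :
    H.relIndex (Subgroup.closure (Set.range g)) ≤ 108 ∧ H.relIndex (Subgroup.closure (Set.range g)) ≠ 0 := by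
  have hn := fun u hu => sndN hinv hr hH u hu (hall u hu)
  have h1 : ∀ x u, u < M → T x u < A → Good (fa g) T MG M (cP g H) x u := by
    intro x u hu hx
    rcases (hn u hu).1 x with h | h
    · exact h.2
    · exact absurd h.1 (by omega)
  have h2 : ∀ u, u < M → MG u < A → GoodM (fa g) T MG M (cP g H) u := fun u hu h => ((hn u hu).2 h).2
  refine relIndex_le (M := M) (A := A) (T := T) (MG := MG) (c := cP g H) (by decide) cc_zero (sound_of_good h1 h2) ?_ ?_ ?_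
  · intro u hu h
    exact ((hn u hu).2 h).1
  · intro x u hu h
    rcases (hn u hu).1 x with h' | h'
    · exact h'.1
    · exact absurd h'.2 (by omega)
  · rw [← hc, ← cntB_spec]
    apply Finset.card_le_card
    intro u
    simp only [Finset.mem_filter, Finset.mem_Ico]
    rintro ⟨⟨_, h3⟩, h4⟩
    refine ⟨⟨Nat.zero_le _, lt_of_lt_of_le h3 (by decide)⟩, ?_⟩
    unfold liveP
    cases hb : Nat.ble M u with
    | true => exact absurd (le_of_ble hb) (by omega)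
    | false => exact h4
end
end H34.TCU6D
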